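import Cfsg.Agent.TO.Cl
import Cfsg.Agent.OddHalf.D9.EEight.RowFinal
import Cfsg.Agent.H63.EightTwo
import Cfsg.Agent.H857.OE8.Om
import Cfsg.Agent.H95.StemCover
import Cfsg.Agent.S2097
import Cfsg.Agent.S2098

/-!
# S4817, box D4C: `Ω₈⁺(q)`, `q` even (helper23)

* `no_inner` : an inner automorphism which normalises `Q` maps `u₁` into `⟨u₁⟩ ∪ ⟨u₂⟩`;
* `sq_inner` : the squares of the automorphisms of `2.Ω₈⁺(2)` are inner;
* `center_eq_bot` : in the surviving configuration the centre of the cover is trivial.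
-/

set_option autoImplicit false

namespace Cfsg.Agent.TO.D4C

open Cfsg Matrix Module
open Cfsg.Agent.OddHalf.D9.EEight Cfsg.Agent.OddHalf.D9.EEight.Id

section Lin

variable {ι : Type} [Fintype ι] [DecidableEq ι] {F : Type} [Field F] {A B : Matrix ι ι F}

theorem pow_fix {w : ι → F} (h : A *ᵥ w = w) (n : ℕ) : (A ^ n) *ᵥ w = w := by
  induction n with
  | zero => rw [pow_zero, one_mulVec]
  | succ n ih => rw [pow_succ, ← mulVec_mulVec, h, ih]

theorem semis (h5 : (5 : F) ≠ 0) (hA : A ^ 5 = 1) {v : ι → F} (h : A *ᵥ ((A - 1) *ᵥ v) = (A - 1) *ᵥ v) :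
    (A - 1) *ᵥ v = 0 := by
  have h1 : (∑ i ∈ Finset.range 5, A ^ i) *ᵥ ((A - 1) *ᵥ v) = 0 := by
    rw [mulVec_mulVec, geom_sum_mul, hA, sub_self, zero_mulVec]
  rw [sum_mulVec, Finset.sum_congr rfl fun i _ => pow_fix h i, Finset.sum_const, Finset.card_range,
    ← Nat.cast_smul_eq_nsmul F] at h1
  exact (smul_eq_zero.1 h1).resolve_left (by exact_mod_cast h5)

theorem ker_of_fix (h5 : (5 : F) ≠ 0) (hA : A ^ 5 = 1) (hAB : (A - 1) * (B - 1) = 0) {a b : ℕ} (ha : ¬ 5 ∣ a)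
    {v : ι → F} (h : (A ^ a * B ^ b) *ᵥ v = v) : (A - 1) *ᵥ v = 0 := by
  have h1 : ∀ n : ℕ, (A - 1) * B ^ n = A - 1 := fun n => by
    induction n with
    | zero => rw [pow_zero, mul_one]
    | succ n ih => rw [pow_succ', ← mul_assoc, sub_eq_zero.1 ((mul_sub_one _ B).symm.trans hAB), ih]
  have h2 : (A ^ a) *ᵥ ((A - 1) *ᵥ v) = (A - 1) *ᵥ v := by
    conv_rhs => rw [← h]
    rw [mulVec_mulVec, mulVec_mulVec, ← mul_assoc, (((Commute.refl A).sub_left (Commute.one_left A)).pow_right a).eq,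
      mul_assoc, h1]
  have h3 := pow_fix h2 (a ^ 3)
  rw [← pow_mul, pow_eq_pow_mod _ hA, show a * a ^ 3 % 5 = 1 by
    rw [← pow_succ', Nat.pow_mod]
    have h4 : a % 5 < 5 := Nat.mod_lt _ (by norm_num)
    have h6 : a % 5 ≠ 0 := fun e => ha (Nat.dvd_of_mod_eq_zero e)
    interval_cases a % 5 <;> simp_all, pow_one] at h3
  exact semis h5 hA h3

theorem rank_add (A : Matrix ι ι F) : A.rank + finrank F (LinearMap.ker A.mulVecLin) = Fintype.card ι := by
  rw [Matrix.rank, LinearMap.finrank_range_add_finrank_ker, finrank_fintype_fun_eq_card]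

theorem rank_eq (h8 : Fintype.card ι = 8) (h5 : (5 : F) ≠ 0) (hA : A ^ 5 = 1) (hB : B ^ 5 = 1)
    (hAB : (A - 1) * (B - 1) = 0) (hBA : (B - 1) * (A - 1) = 0) (rA : (A - 1).rank = 4) (rB : (B - 1).rank = 4)
    {a b : ℕ} (ha : ¬ 5 ∣ a) (hb : ¬ 5 ∣ b) : (A ^ a * B ^ b - 1).rank = 8 := by
  have hc : Commute A B := by
    have h1 : A * B - B * A = (A - 1) * (B - 1) - (B - 1) * (A - 1) := by noncomm_ring
    rw [hAB, hBA, sub_self, sub_eq_zero] at h1
    exact h1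
  have h1 : LinearMap.range (B - 1).mulVecLin = LinearMap.ker (A - 1).mulVecLin := by
    refine Submodule.eq_of_le_of_finrank_eq ?_ ?_
    · rintro _ ⟨w, rfl⟩
      show (A - 1) *ᵥ ((B - 1) *ᵥ w) = 0
      rw [mulVec_mulVec, hAB, zero_mulVec]
    · have h2 := rank_add (A - 1)
      change (B - 1).rank = _
      omega
  have h2 : LinearMap.ker (A ^ a * B ^ b - 1).mulVecLin = ⊥ := by
    rw [eq_bot_iff]
    intro v hv
    have h3 : (A ^ a * B ^ b) *ᵥ v = v := by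
      have h4 : (A ^ a * B ^ b - 1) *ᵥ v = 0 := hv
      rwa [sub_mulVec, one_mulVec, sub_eq_zero] at h4
    obtain ⟨w, rfl⟩ : v ∈ LinearMap.range (B - 1).mulVecLin := h1 ▸ ker_of_fix h5 hA hAB ha h3
    have h4 := ker_of_fix h5 hB hBA hb ((hc.pow_pow a b).eq ▸ h3)
    rw [sub_mulVec, one_mulVec, sub_eq_zero] at h4
    exact semis h5 hB h4
  have h3 := rank_add (A ^ a * B ^ b - 1)
  rw [h2, finrank_bot] at h3
  omega

end Lin

variable {F : Type} [Field F]

/-- the matrix of an element of `Ω`, as a homomorphism -/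
def matH (F : Type) [Field F] : Omega F (quadFormPlus 4 F) →* Matrix (Fin 4 ⊕ Fin 4) (Fin 4 ⊕ Fin 4) F :=
  (Units.coeHom _).comp ((Subgroup.subtype _).comp (Subgroup.subtype _))

theorem matH_apply (u : Omega F (quadFormPlus 4 F)) : matH F u = mat u := rfl

theorem matH_inj : Function.Injective (matH F) := fun _ _ h => Subtype.ext (Subtype.ext (Units.ext h))

/-- inner automorphisms keep the support -/
theorem no_inner (h2 : (2 : F) = 0) {u₁ u₂ : Omega F (quadFormPlus 4 F)} (p1 : u₁ ^ 5 = 1) (p2 : u₂ ^ 5 = 1)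
    (z12 : (mat u₁ - 1) * (mat u₂ - 1) = 0) (z21 : (mat u₂ - 1) * (mat u₁ - 1) = 0) (r1 : (mat u₁ - 1).rank = 4)
    (r2 : (mat u₂ - 1).rank = 4) {x : POmega F (quadFormPlus 4 F)}
    (hx : x * QuotientGroup.mk u₁ * x⁻¹ ∈ Subgroup.closure {(QuotientGroup.mk u₁ : POmega F (quadFormPlus 4 F)),
      QuotientGroup.mk u₂}) :
    x * QuotientGroup.mk u₁ * x⁻¹ ∈ Subgroup.zpowers (QuotientGroup.mk u₁ : POmega F (quadFormPlus 4 F)) ∨
      x * QuotientGroup.mk u₁ * x⁻¹ ∈ Subgroup.zpowers (QuotientGroup.mk u₂ : POmega F (quadFormPlus 4 F)) := by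
  have hc : Commute u₁ u₂ := matH_inj (by
    have h1 : mat u₁ * mat u₂ - mat u₂ * mat u₁ = (mat u₁ - 1) * (mat u₂ - 1) - (mat u₂ - 1) * (mat u₁ - 1) := by
      noncomm_ring
    rw [z12, z21, sub_self, sub_eq_zero] at h1
    rw [map_mul, map_mul]
    exact h1)
  obtain ⟨a, b, h1⟩ : ∃ a b : ℕ, x * QuotientGroup.mk u₁ * x⁻¹ = QuotientGroup.mk (u₁ ^ a * u₂ ^ b) := by
    refine Subgroup.closure_induction (p := fun y _ => ∃ a b : ℕ, y = QuotientGroup.mk (u₁ ^ a * u₂ ^ b)) ?_ ?_ ?_ ?_ hx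
    · rintro _ (rfl | rfl)
      · exact ⟨1, 0, by rw [pow_one, pow_zero, mul_one]⟩
      · exact ⟨0, 1, by rw [pow_one, pow_zero, one_mul]⟩
    · exact ⟨0, 0, by rw [pow_zero, pow_zero, mul_one]; rfl⟩
    · rintro _ _ _ _ ⟨a, b, rfl⟩ ⟨c, d, rfl⟩
      exact ⟨a + c, b + d, by rw [← QuotientGroup.mk_mul, pow_add, pow_add, (hc.pow_pow c b).mul_mul_mul_comm]⟩
    · rintro _ _ ⟨a, b, rfl⟩
      refine ⟨4 * a, 4 * b, ?_⟩
      rw [← QuotientGroup.mk_inv, inv_eq_of_mul_eq_one_right (b := u₁ ^ (4 * a) * u₂ ^ (4 * b))]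
      rw [← (hc.pow_pow _ b).mul_mul_mul_comm, ← pow_add, ← pow_add, show a + 4 * a = 5 * a by ring,
        show b + 4 * b = 5 * b by ring, pow_mul, pow_mul, p1, p2, one_pow, one_pow, mul_one]
  by_cases hb : 5 ∣ b
  · obtain ⟨b, rfl⟩ := hb
    exact Or.inl ⟨a, by rw [h1, pow_mul, p2, one_pow, mul_one, QuotientGroup.mk_pow]; exact zpow_natCast _ _⟩
  by_cases ha : 5 ∣ a
  · obtain ⟨a, rfl⟩ := ha
    exact Or.inr ⟨b, by rw [h1, pow_mul, p1, one_pow, one_mul, QuotientGroup.mk_pow]; exact zpow_natCast _ _⟩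
  exfalso
  obtain ⟨x, rfl⟩ := QuotientGroup.mk_surjective x
  rw [← QuotientGroup.mk_inv, ← QuotientGroup.mk_mul, ← QuotientGroup.mk_mul, QuotientGroup.eq,
    H857.OE8.center_omega h2, Subgroup.mem_bot, inv_mul_eq_one] at h1
  have h5 : (5 : F) ≠ 0 := fun h => one_ne_zero (by linear_combination h - 2 * h2 : (1 : F) = 0)
  have h3 := rank_eq (A := matH F u₁) (B := matH F u₂) (by simp) h5 (by rw [← map_pow, p1, map_one])
    (by rw [← map_pow, p2, map_one]) z12 z21 r1 r2 ha hb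
  have h4 : matH F u₁ ^ a * matH F u₂ ^ b - 1 = matH F x * (matH F u₁ - 1) * matH F x⁻¹ := by
    rw [← map_pow, ← map_pow, ← map_mul, ← h1, mul_sub, sub_mul, mul_one, ← map_mul, ← map_mul, ← map_mul,
      mul_inv_cancel, map_one]
  have h6 := (rank_mul_le_left (matH F x * (matH F u₁ - 1)) (matH F x⁻¹)).trans (rank_mul_le_right _ _)
  rw [← h4, h3, matH_apply, r1] at h6
  omega

/-- the automorphisms of `2.Ω₈⁺(2)` -/
theorem sq_inner [Fintype F] (hF : Fintype.card F = 2) {G : Type} [Group G] {σ : G →* POmega F (quadFormPlus 4 F)}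
    (hG : commutator G = ⊤) (hs : Function.Surjective σ) (hk : σ.ker = Subgroup.center G)
    (hc : IsCyclic (Subgroup.center G)) (hne : Subgroup.center G ≠ ⊥) (α : MulAut G) :
    ∃ x : G, ∀ g, α (α g) = x * g * x⁻¹ := by
  obtain ⟨e1⟩ := UGT.U2.Rec.Congr.nonempty_POmega _
    (S2098.plus_map (FiniteField.ringEquivOfCardEq (hF.trans (ZMod.card 2).symm)) 4)
  obtain ⟨e2⟩ := H63.EightTwo.exists_equiv
  have h1 : ((e1.trans e2).toMonoidHom.comp σ).ker = σ.ker := MonoidHom.ker_comp_of_injective _ _ (e1.trans e2).injective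
  have h2 := H95.StemCover.card_ker_dvd (S2098.result hF) hG σ hs hk.le
  rw [Nat.card_congr Multiplicative.toAdd, Nat.card_prod, Nat.card_zmod] at h2
  obtain ⟨n, -, h3⟩ := (Nat.dvd_prime_pow Nat.prime_two (m := 2)).1 h2
  obtain ⟨e⟩ := Main.exists_iso (π := (e1.trans e2).toMonoidHom.comp σ)
    ⟨(e1.trans e2).surjective.comp hs, h1.le.trans hk.le, h1 ▸ IsPGroup.of_card h3, hG⟩ (by rwa [h1, hk]) (by rwa [h1, hk])
  obtain ⟨w, hw⟩ := RowFinal.autConj (MulAut.congr e α)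
  refine ⟨e.symm ⟨w * w, by rw [mem_K₀, map_mul, Int.units_mul_self]⟩, fun g => e.injective (Subtype.ext ?_)⟩
  have h4 : ∀ g, ((e (α g) : K₀) : W) = w * e g * w⁻¹ := fun g => by
    rw [← hw]
    simp
  rw [h4, h4, map_mul, map_mul, map_inv, e.apply_symm_apply]
  simp only [Subgroup.coe_mul, InvMemClass.coe_inv, _root_.mul_inv_rev, mul_assoc]

/-- **the centre is trivial** -/
theorem center_eq_bot [Fintype F] (hF : Even (Fintype.card F)) {G : Type} [Group G] [Finite G]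
    {σ : G →* POmega F (quadFormPlus 4 F)} {M : Ideal AlgInt} {b : Set (IrrCharacter G)} {D : Subgroup G}
    (H : Hyp 5 M b D σ) (h : SurvD F (Ind σ b) (D.map σ)) : Subgroup.center G = ⊥ := by
  by_cases hq : Fintype.card F = 2
  swap
  · have h1 := H95.StemCover.card_ker_dvd (S2097.result rfl 4 le_rfl (by decide) fun e => hq e.2) H.perf σ H.surj H.ker.le
    have h2 : Nat.gcd 2 (Fintype.card F ^ 4 - 1) = 1 :=
      Nat.coprime_two_left.2 (Nat.Even.sub_odd (Nat.one_le_pow _ _ Fintype.card_pos) (hF.pow_of_ne_zero (by decide)) odd_one)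
    rw [Nat.card_congr Multiplicative.toAdd, Nat.card_prod, Nat.card_zmod, h2, H.ker] at h1
    exact Subgroup.eq_bot_of_card_eq _ (Nat.dvd_one.1 h1)
  by_contra hne
  obtain ⟨-, u₁, u₂, p1, p2, z12, z21, r1, r2, hQ, α, ⟨β, -, hβ⟩, h1, h2⟩ := h
  obtain ⟨x, hx⟩ := sq_inner hq H.perf H.surj H.ker H.cyc hne β
  have h3 : ∀ y, (α ^ (2 : ℤ)) y = σ x * y * (σ x)⁻¹ := fun y => by
    obtain ⟨g, rfl⟩ := H.surj y
    rw [zpow_two, MulAut.mul_apply, ← hβ, ← hβ, hx, map_mul, map_mul, map_inv]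
  have h4 := h2 2 (by decide)
  have h5 : (α ^ (2 : ℤ)) (QuotientGroup.mk u₁) ∈ D.map σ := by
    rw [zpow_two, MulAut.mul_apply, h1, h1, hQ]
    exact Subgroup.subset_closure (Or.inl rfl)
  rw [h3] at h4 h5
  have h6 : (2 : F) = 0 := by exact_mod_cast hq ▸ FiniteField.cast_card_eq_zero F
  exact (no_inner h6 p1 p2 z12 z21 r1 r2 (hQ ▸ h5)).elim h4.1 h4.2

/-- D4C from the case of trivial centre -/
theorem boxD4C_of (h : ∀ (F : Type) [Field F] [Fintype F] (G : Type) [Group G] [Finite G]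
    (σ : G →* POmega F (quadFormPlus 4 F)) (M : Ideal AlgInt) (b : Set (IrrCharacter G)) (D : Subgroup G),
    Even (Fintype.card F) → Hyp 5 M b D σ → SurvD F (Ind σ b) (D.map σ) → Subgroup.center G ≠ ⊥) : BoxD4C :=
  fun F _ _ hF G _ _ σ M b D H hS => h F G σ M b D hF H hS (center_eq_bot hF H hS)

end Cfsg.Agent.TO.D4C
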